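import Mathlib

/-!
# Sections of the form `p : e` give a fusion `t ~ t²` when the Sylow `p`-subgroups are abelian
-/

set_option autoImplicit false
set_option linter.unusedVariables false
set_option linter.unusedSectionVars false

namespace Cfsg.Agent.Lib.AltSec

open Pointwise

section eigen

theorem pow_congr_mod {G : Type*} [Monoid G] {a : G} {N m m' : ℕ} (h : a ^ N = 1) (hm : m ≡ m' [MOD N]) : a ^ m = a ^ m' := by
  rw [pow_eq_pow_mod m h, pow_eq_pow_mod m' h, hm]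

theorem omega_two (p b : ℕ) [hp : Fact p.Prime] : 2 ^ (p ^ b) ≡ 2 [MOD p] := by
  rw [← ZMod.natCast_eq_natCast_iff]
  push_cast
  exact ZMod.pow_card_pow (p := p) (x := (2 : ZMod p)) (n := b)

theorem omega_one (p e b : ℕ) (hpe : p ∣ 2 ^ e - 1) : (2 ^ (p ^ b)) ^ e ≡ 1 [MOD p ^ b] := by
  have h1 : ((p : ℤ)) ∣ (2 ^ e : ℤ) - 1 := by
    have h2 : (1 : ℕ) ≤ 2 ^ e := Nat.one_le_two_pow
    have h3 : ((2 ^ e - 1 : ℕ) : ℤ) = (2 ^ e : ℤ) - 1 := by
      push_cast [Nat.cast_sub h2]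
      ring
    rw [← h3]
    exact_mod_cast hpe
  have h4 := dvd_sub_pow_of_dvd_sub h1 b
  simp only [one_pow] at h4
  have h5 : ((p : ℤ) ^ b) ∣ ((2 ^ e : ℤ)) ^ (p ^ b) - 1 := dvd_trans (pow_dvd_pow _ (Nat.le_succ b)) h4
  have h6 : (((2 ^ (p ^ b)) ^ e : ℕ) : ℤ) = ((2 ^ e : ℤ)) ^ (p ^ b) := by
    push_cast
    ring
  rw [Nat.modEq_iff_dvd]
  have e7 : ((1 : ℕ) : ℤ) - (((2 ^ (p ^ b)) ^ e : ℕ) : ℤ) = -((((2 ^ e : ℤ)) ^ (p ^ b)) - 1) := by
    rw [h6]
    push_cast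
    ring
  rw [e7]
  push_cast
  exact (dvd_neg).2 h5

/-- The eigenvector lemma. -/
theorem eigen_lemma {A Q : Type*} [CommGroup A] [CommGroup Q] [Finite A] (p e n : ℕ) [hp : Fact p.Prime] (hpe : p ∣ 2 ^ e - 1) (he : e ∣ n)
    (hn : ¬ p ∣ n) (hA : IsPGroup p A) (E : A →* A) (π : A →* Q) (hEn : ∀ a, E^[n] a = a)
    (hπ : ∀ a, π (E a) = π a ^ 2) (s : A) (hs1 : π s ≠ 1) (hsp : π s ^ p = 1) :
    ∃ t : A, t ≠ 1 ∧ t ^ p = 1 ∧ E t = t ^ 2 := by
  obtain ⟨b, hb⟩ := IsPGroup.iff_card.1 hA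
  have hexp : ∀ a : A, a ^ (p ^ b) = 1 := fun a => by
    rw [← hb]
    exact pow_card_eq_one'
  have he0 : 1 ≤ e := by
    rcases Nat.eq_zero_or_pos e with h | h
    · subst h
      exact absurd ((zero_dvd_iff.1 he) ▸ dvd_zero p) hn
    · exact h
  set ω := 2 ^ (p ^ b) with hω
  have hω1 : ω ^ e ≡ 1 [MOD p ^ b] := omega_one p e b hpe
  have hω2 : ω ≡ 2 [MOD p] := omega_two p b
  let W : ℕ → ℕ := fun i => ω ^ ((e - 1) * i)
  let F : ℕ → A := fun i => (E^[i] s) ^ W i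
  have claim1 : ∀ i, E (F i) = (F (i + 1)) ^ ω := by
    intro i
    show E ((E^[i] s) ^ W i) = ((E^[i + 1] s) ^ W (i + 1)) ^ ω
    rw [map_pow, ← pow_mul, ← Function.iterate_succ_apply' E i s]
    refine pow_congr_mod (hexp _) ?_
    have e1 : W (i + 1) * ω = W i * ω ^ e := by
      show ω ^ ((e - 1) * (i + 1)) * ω = ω ^ ((e - 1) * i) * ω ^ e
      rw [← pow_succ, ← pow_add]
      congr 1
      obtain ⟨k, rfl⟩ : ∃ k, e = k + 1 := ⟨e - 1, by omega⟩
      simp only [Nat.add_sub_cancel]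
      ring
    rw [e1]
    have := (Nat.ModEq.refl (W i)).mul hω1
    rw [mul_one] at this
    exact this.symm
  have claim2 : F n = F 0 := by
    show (E^[n] s) ^ W n = (E^[0] s) ^ W 0
    rw [hEn]
    have e1 : W 0 = 1 := by simp [W]
    rw [e1]
    simp only [Function.iterate_zero, id_eq, pow_one]
    obtain ⟨k, rfl⟩ := he
    have e2 : W (e * k) = (ω ^ e) ^ ((e - 1) * k) := by
      show ω ^ ((e - 1) * (e * k)) = _
      have e3 : (e - 1) * (e * k) = e * ((e - 1) * k) := by ring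
      rw [e3, pow_mul]
    rw [e2]
    have h3 : (ω ^ e) ^ ((e - 1) * k) ≡ 1 [MOD p ^ b] := by
      have := hω1.pow ((e - 1) * k)
      rwa [one_pow] at this
    have := pow_congr_mod (hexp s) h3
    rwa [pow_one] at this
  let v : A := ∏ i ∈ Finset.range n, F i
  have hv : E v = v ^ ω := by
    show E (∏ i ∈ Finset.range n, F i) = (∏ i ∈ Finset.range n, F i) ^ ω
    rw [map_prod]
    simp only [claim1]
    rw [Finset.prod_pow]
    congr 1
    have h1 := Finset.prod_range_succ' F n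
    rw [Finset.prod_range_succ, claim2] at h1
    exact (mul_right_cancel h1).symm
  have hπi : ∀ i, π (E^[i] s) = π s ^ (2 ^ i) := by
    intro i
    induction i with
    | zero => simp
    | succ i ih =>
      rw [Function.iterate_succ_apply', hπ, ih, ← pow_mul, pow_succ]
  have hπF : ∀ i, π (F i) = π s := by
    intro i
    show π ((E^[i] s) ^ W i) = π s
    rw [map_pow, hπi, ← pow_mul]
    have h1 : 2 ^ i * W i ≡ 1 [MOD p] := by
      have h2 : W i ≡ 2 ^ ((e - 1) * i) [MOD p] := hω2.pow _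
      have h3 : 2 ^ i * 2 ^ ((e - 1) * i) = (2 ^ e) ^ i := by
        rw [← pow_add, ← pow_mul]
        congr 1
        obtain ⟨k, rfl⟩ : ∃ k, e = k + 1 := ⟨e - 1, by omega⟩
        simp only [Nat.add_sub_cancel]
        ring
      have h4 : 2 ^ e ≡ 1 [MOD p] := by
        have h5 : 1 ≤ 2 ^ e := Nat.one_le_two_pow
        exact ((Nat.modEq_iff_dvd' h5).2 hpe).symm
      have h6 : 2 ^ i * W i ≡ (2 ^ e) ^ i [MOD p] := by
        rw [← h3]
        exact (Nat.ModEq.refl _).mul h2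
      have h7 := h6.trans (h4.pow i)
      simpa using h7
    have := pow_congr_mod hsp h1
    rwa [pow_one] at this
  have hπv : π v = π s ^ n := by
    show π (∏ i ∈ Finset.range n, F i) = _
    rw [map_prod]
    simp only [hπF]
    simp
  have hv1 : v ≠ 1 := by
    intro h
    rw [h, map_one] at hπv
    have h1 : orderOf (π s) ∣ n := orderOf_dvd_of_pow_eq_one hπv.symm
    have h2 : orderOf (π s) ∣ p := orderOf_dvd_of_pow_eq_one hsp
    have h3 : Nat.Coprime p n := (Nat.Prime.coprime_iff_not_dvd hp.out).2 hn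
    have h4 := Nat.dvd_gcd h2 h1
    rw [h3] at h4
    exact hs1 (orderOf_eq_one_iff.1 (Nat.dvd_one.1 h4))
  classical
  have hex : ∃ d, v ^ (p ^ d) = 1 := ⟨b, hexp v⟩
  let d := Nat.find hex
  have hd : v ^ (p ^ d) = 1 := Nat.find_spec hex
  have hd0 : d ≠ 0 := by
    intro h
    rw [h, pow_zero, pow_one] at hd
    exact hv1 hd
  obtain ⟨d', hd'⟩ : ∃ d', d = d' + 1 := ⟨d - 1, by omega⟩
  refine ⟨v ^ (p ^ d'), ?_, ?_, ?_⟩
  · exact Nat.find_min hex (m := d') (by omega)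
  · rw [← pow_mul, ← pow_succ, ← hd']
    exact hd
  · have ht : (v ^ (p ^ d')) ^ p = 1 := by
      rw [← pow_mul, ← pow_succ, ← hd']
      exact hd
    rw [map_pow, hv]
    rw [← pow_mul, mul_comm, pow_mul]
    exact pow_congr_mod ht hω2

end eigen

section normal

variable {Γ Q : Type*} [Group Γ] [Finite Γ] [Group Q]

/-- The eigenvector lemma in a non-bundled form. -/
theorem eigen_lemma' {A R : Type*} [Group A] [CommGroup R] [Finite A] (p e n : ℕ) [hp : Fact p.Prime] (hpe : p ∣ 2 ^ e - 1) (he : e ∣ n)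
    (hn : ¬ p ∣ n) (hA : IsPGroup p A) (hcomm : ∀ a b : A, a * b = b * a) (E : A →* A) (π : A →* R) (hEn : ∀ a, E^[n] a = a)
    (hπ : ∀ a, π (E a) = π a ^ 2) (s : A) (hs1 : π s ≠ 1) (hsp : π s ^ p = 1) :
    ∃ t : A, t ≠ 1 ∧ t ^ p = 1 ∧ E t = t ^ 2 := by
  letI : CommGroup A := { (inferInstance : Group A) with mul_comm := hcomm }
  exact eigen_lemma p e n hpe he hn hA E π hEn hπ s hs1 hsp

/-- The fusion in the case that the root group is normal. -/
theorem exists_fusion_normal (p e : ℕ) [hp : Fact p.Prime] (hpe : p ∣ 2 ^ e - 1) (hpe' : ¬ p ∣ e) (f : Γ →* Q)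
    (hf : Function.Surjective f) (c d : Q) (hc : c ^ p = 1) (hc1 : c ≠ 1) (hd : d ^ e = 1) (hdc : d * c * d⁻¹ = c ^ 2)
    (hnorm : (Subgroup.zpowers c).Normal)
    (hab : ∀ W : Subgroup Γ, IsPGroup p W → ∀ a ∈ W, ∀ b ∈ W, a * b = b * a) :
    ∃ t x : Γ, t ≠ 1 ∧ t ^ p = 1 ∧ x * t * x⁻¹ = t ^ 2 := by
  classical
  let Z : Subgroup Q := Subgroup.zpowers c
  let L : Subgroup Γ := Z.comap f
  haveI : L.Normal := Subgroup.normal_comap f
  obtain ⟨P⟩ : Nonempty (Sylow p L) := inferInstance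
  let P₁ : Subgroup Γ := (P : Subgroup L).map L.subtype
  have hP₁ : IsPGroup p P₁ := P.isPGroup'.map _
  -- the map to the cyclic group
  let f₁ : L →* Z := (f.comp L.subtype).codRestrict Z (fun x => x.2)
  have hf₁ : Function.Surjective f₁ := by
    rintro ⟨z, hz⟩
    obtain ⟨y, hy⟩ := hf z
    refine ⟨⟨y, ?_⟩, Subtype.ext hy⟩
    show f y ∈ Z
    rw [hy]
    exact hz
  have hZf : Finite Z := Finite.of_surjective f₁ hf₁
  have hZp : IsPGroup p Z := by
    rw [IsPGroup.iff_card]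
    refine ⟨1, ?_⟩
    rw [pow_one]
    have : Z = Subgroup.zpowers c := rfl
    rw [this, Nat.card_zpowers]
    exact orderOf_eq_prime hc hc1
  have hPZ : (P : Subgroup L).map f₁ = ⊤ := by
    have h2 : ((P.mapSurjective hf₁ : Sylow p Z) : Subgroup Z) = ⊤ := by
      have h3 : IsPGroup p (⊤ : Subgroup Z) := IsPGroup.to_subgroup hZp ⊤
      exact (P.mapSurjective hf₁).is_maximal' h3 le_top |>.symm
    rw [← h2]
    rfl
  have hlift : ∀ z : Z, ∃ s ∈ P₁, f s = z := by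
    intro z
    have hz : z ∈ (P : Subgroup L).map f₁ := by
      rw [hPZ]
      exact Subgroup.mem_top z
    obtain ⟨s, hs, hsz⟩ := hz
    refine ⟨s, ⟨s, hs, rfl⟩, ?_⟩
    exact congrArg Subtype.val hsz
  have hP₁L : ∀ a ∈ P₁, f a ∈ Z := by
    rintro a ⟨b, -, rfl⟩
    exact b.2
  -- Frattini
  have hFr := Sylow.normalizer_sup_eq_top (p := p) P
  obtain ⟨y₀, hy₀⟩ := hf d
  have hy₀' : y₀ ∈ ((Subgroup.normalizer (P₁ : Set Γ)) ⊔ L : Subgroup Γ) := by
    have : ((Subgroup.normalizer (P₁ : Set Γ)) ⊔ L : Subgroup Γ) = ⊤ := hFr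
    rw [this]
    exact Subgroup.mem_top _
  have hset : y₀ ∈ (((Subgroup.normalizer (P₁ : Set Γ) : Subgroup Γ) : Set Γ) * (L : Set Γ)) := by
    rw [← Subgroup.mul_normal]
    exact hy₀'
  obtain ⟨u, hu, l, hl, hul⟩ := Set.mem_mul.1 hset
  obtain ⟨s₁, hs₁, hs₁l⟩ := hlift ⟨f l, hl⟩
  have hs₁N : s₁ ∈ (Subgroup.normalizer (P₁ : Set Γ)) := Subgroup.le_normalizer hs₁
  let x₀ := u * s₁
  have hx₀N : x₀ ∈ (Subgroup.normalizer (P₁ : Set Γ)) := Subgroup.mul_mem _ hu hs₁N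
  have hx₀d : f x₀ = d := by
    show f (u * s₁) = d
    rw [map_mul, hs₁l, ← map_mul, hul, hy₀]
  -- killing the `p`-part
  have ho : orderOf x₀ ≠ 0 := (orderOf_pos x₀).ne'
  obtain ⟨u₁, w, hw, hwo⟩ := Nat.exists_eq_pow_mul_and_not_dvd ho p hp.out.ne_one
  have hcop : Nat.Coprime e (p ^ u₁) :=
    Nat.Coprime.pow_right _ ((Nat.Prime.coprime_iff_not_dvd hp.out).2 hpe').symm
  obtain ⟨k, hk1, hk2⟩ := Nat.chineseRemainder hcop 1 0
  let y := x₀ ^ k
  have hyN : y ∈ (Subgroup.normalizer (P₁ : Set Γ)) := Subgroup.pow_mem _ hx₀N _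
  have hyd : f y = d := by
    show f (x₀ ^ k) = d
    rw [map_pow, hx₀d]
    have := pow_congr_mod hd hk1
    rwa [pow_one] at this
  have hyw : y ^ w = 1 := by
    obtain ⟨k', hk'⟩ := (Nat.modEq_zero_iff_dvd.1 hk2)
    show (x₀ ^ k) ^ w = 1
    rw [hk', ← pow_mul]
    have e1 : p ^ u₁ * k' * w = (p ^ u₁ * w) * k' := by ring
    rw [e1, ← hwo, pow_mul, pow_orderOf_eq_one, one_pow]
  -- the action
  have hyN' : ∀ a : P₁, y * a * y⁻¹ ∈ P₁ := fun a => (Subgroup.mem_normalizer_iff.1 hyN a).1 a.2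
  let E : P₁ →* P₁ :=
    { toFun := fun a => ⟨y * a * y⁻¹, hyN' a⟩
      map_one' := Subtype.ext (by simp)
      map_mul' := fun a b => Subtype.ext (by simp [mul_assoc]) }
  have hEit : ∀ (i : ℕ) (a : P₁), ((E^[i] a : P₁) : Γ) = y ^ i * a * (y ^ i)⁻¹ := by
    intro i a
    induction i with
    | zero => simp
    | succ i ih =>
      rw [Function.iterate_succ_apply']
      show y * ((E^[i] a : P₁) : Γ) * y⁻¹ = _
      rw [ih, pow_succ']
      group
  let π : P₁ →* Z := (f.comp P₁.subtype).codRestrict Z (fun a => hP₁L a a.2)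
  have hπ : ∀ a, π (E a) = π a ^ 2 := by
    intro a
    apply Subtype.ext
    show f (y * a * y⁻¹) = (f a) ^ 2
    rw [map_mul, map_mul, map_inv, hyd]
    obtain ⟨m, hm⟩ := Subgroup.mem_zpowers_iff.1 (hP₁L a a.2)
    rw [← hm]
    have e1 : d * c ^ m * d⁻¹ = (d * c * d⁻¹) ^ m := by
      rw [conj_zpow]
    rw [e1, hdc, ← zpow_natCast, ← zpow_natCast, ← zpow_mul, ← zpow_mul, mul_comm]
  obtain ⟨s₀, hs₀, hs₀c⟩ := hlift ⟨c, Subgroup.mem_zpowers c⟩
  have hd1 : e ≠ 0 := by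
    rintro rfl
    exact hpe' (dvd_zero p)
  have hn : ¬ p ∣ w * e := by
    intro h
    rcases (Nat.Prime.dvd_mul hp.out).1 h with h | h
    · exact hw h
    · exact hpe' h
  have hcommP : ∀ a b : P₁, a * b = b * a := fun a b => Subtype.ext (hab P₁ hP₁ a a.2 b b.2)
  have hEn : ∀ a, E^[w * e] a = a := by
    intro a
    apply Subtype.ext
    rw [hEit, pow_mul, hyw, one_pow]
    simp
  have hcZ : ((⟨c, Subgroup.mem_zpowers c⟩ : Z) : Q) = c := rfl
  letI instZ : CommGroup Z :=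
    { (inferInstance : Group Z) with
      mul_comm := fun a b => by
        obtain ⟨a, ha⟩ := a
        obtain ⟨b, hb⟩ := b
        obtain ⟨m, rfl⟩ := Subgroup.mem_zpowers_iff.1 ha
        obtain ⟨n, rfl⟩ := Subgroup.mem_zpowers_iff.1 hb
        apply Subtype.ext
        show c ^ m * c ^ n = c ^ n * c ^ m
        rw [← zpow_add, ← zpow_add, add_comm] }
  obtain ⟨t, ht1, htp, hEt⟩ := eigen_lemma' (R := Z) p e (w * e) hpe (dvd_mul_left _ _) hn (hP₁.to_le le_rfl) hcommP E π hEn hπ ⟨s₀, hs₀⟩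
    (by
      intro h
      apply hc1
      have h2 : f s₀ = 1 := congrArg Subtype.val h
      rw [hs₀c] at h2
      exact h2)
    (by
      apply Subtype.ext
      show (f s₀) ^ p = 1
      rw [hs₀c]
      exact hc)
  refine ⟨t, y, ?_, ?_, ?_⟩
  · intro h
    exact ht1 (Subtype.ext h)
  · have := congrArg Subtype.val htp
    simpa using this
  · have := congrArg Subtype.val hEt
    simpa [E] using this

end normal

section general

variable {Γ Q : Type*} [Group Γ] [Finite Γ] [Group Q]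

theorem conj_pow_iter {c d : Q} (hdc : d * c * d⁻¹ = c ^ 2) (k : ℕ) : d ^ k * c * (d ^ k)⁻¹ = c ^ (2 ^ k) := by
  induction k with
  | zero => simp
  | succ k ih =>
    have e1 : d ^ (k + 1) * c * (d ^ (k + 1))⁻¹ = d * (d ^ k * c * (d ^ k)⁻¹) * d⁻¹ := by
      rw [pow_succ']
      group
    rw [e1, ih, ← conj_pow, hdc, ← pow_mul, pow_succ']

/-- The fusion in general. -/
theorem exists_fusion (p e : ℕ) [hp : Fact p.Prime] (hpe : p ∣ 2 ^ e - 1) (hpe' : ¬ p ∣ e) (f : Γ →* Q)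
    (hf : Function.Surjective f) (c d : Q) (hc : c ^ p = 1) (hc1 : c ≠ 1) (hd : d ^ e = 1) (hdc : d * c * d⁻¹ = c ^ 2)
    (hab : ∀ W : Subgroup Γ, IsPGroup p W → ∀ a ∈ W, ∀ b ∈ W, a * b = b * a) :
    ∃ t x : Γ, t ≠ 1 ∧ t ^ p = 1 ∧ x * t * x⁻¹ = t ^ 2 := by
  classical
  let Nz : Subgroup Q := Subgroup.normalizer ((Subgroup.zpowers c : Subgroup Q) : Set Q)
  have hcN : c ∈ Nz := Subgroup.le_normalizer (Subgroup.mem_zpowers c)
  have he0 : e ≠ 0 := by
    rintro rfl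
    exact hpe' (dvd_zero p)
  have hdN : d ∈ Nz := by
    have key : ∀ (g : Q) (k : ℕ), g * c * g⁻¹ = c ^ k → ∀ h ∈ Subgroup.zpowers c, g * h * g⁻¹ ∈ Subgroup.zpowers c := by
      intro g k hg h hh
      obtain ⟨m, rfl⟩ := Subgroup.mem_zpowers_iff.1 hh
      have e1 : g * c ^ m * g⁻¹ = (g * c * g⁻¹) ^ m := by rw [conj_zpow]
      rw [e1, hg]
      exact Subgroup.zpow_mem _ (Subgroup.pow_mem _ (Subgroup.mem_zpowers c) _) _
    refine Subgroup.mem_normalizer_iff.2 (fun h => ⟨key d 2 hdc h, fun hh => ?_⟩)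
    have e1 : d⁻¹ * c * d = c ^ (2 ^ (e - 1)) := by
      have h2 := conj_pow_iter hdc (e - 1)
      have h3 : d ^ (e - 1) = d⁻¹ := by
        rw [eq_inv_iff_mul_eq_one, ← pow_succ]
        rw [show e - 1 + 1 = e by omega]
        exact hd
      rw [h3, inv_inv] at h2
      exact h2
    have h4 := key d⁻¹ _ (by rw [inv_inv]; exact e1) _ hh
    have e2 : d⁻¹ * (d * h * d⁻¹) * d⁻¹⁻¹ = h := by group
    rwa [e2] at h4
  let c₁ : Nz := ⟨c, hcN⟩
  let d₁ : Nz := ⟨d, hdN⟩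
  let Γ₁ : Subgroup Γ := Nz.comap f
  let f₁ : Γ₁ →* Nz := (f.comp Γ₁.subtype).codRestrict Nz (fun x => x.2)
  have hf₁ : Function.Surjective f₁ := by
    rintro ⟨z, hz⟩
    obtain ⟨y, hy⟩ := hf z
    refine ⟨⟨y, ?_⟩, Subtype.ext hy⟩
    show f y ∈ Nz
    rw [hy]
    exact hz
  have hnorm : (Subgroup.zpowers c₁).Normal := by
    refine ⟨fun n hn g => ?_⟩
    obtain ⟨m, rfl⟩ := Subgroup.mem_zpowers_iff.1 hn
    have h1 : (g : Q) * c ^ m * (g : Q)⁻¹ ∈ Subgroup.zpowers c :=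
      (Subgroup.mem_normalizer_iff.1 g.2 _).1 (Subgroup.zpow_mem _ (Subgroup.mem_zpowers c) m)
    obtain ⟨k, hk⟩ := Subgroup.mem_zpowers_iff.1 h1
    refine Subgroup.mem_zpowers_iff.2 ⟨k, Subtype.ext ?_⟩
    show c ^ k = (g : Q) * c ^ m * (g : Q)⁻¹
    exact hk
  have hab₁ : ∀ W : Subgroup Γ₁, IsPGroup p W → ∀ a ∈ W, ∀ b ∈ W, a * b = b * a := by
    intro W hW a ha b hb
    have h1 := hab (W.map Γ₁.subtype) (hW.map _) a ⟨a, ha, rfl⟩ b ⟨b, hb, rfl⟩
    exact Subtype.ext h1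
  obtain ⟨t, x, h1, h2, h3⟩ := exists_fusion_normal p e hpe hpe' f₁ hf₁ c₁ d₁ (Subtype.ext hc)
    (fun h => hc1 (congrArg Subtype.val h)) (Subtype.ext hd) (Subtype.ext hdc) hnorm hab₁
  refine ⟨t, x, fun h => h1 (Subtype.ext h), ?_, ?_⟩
  · exact congrArg Subtype.val h2
  · exact congrArg Subtype.val h3

end general

/-- The pair in the alternating group. -/
theorem exists_alt_pair {r : ℕ} (hr : 7 ≤ r) :
    ∃ c d : alternatingGroup (Fin r), c ^ 7 = 1 ∧ c ≠ 1 ∧ d ^ 3 = 1 ∧ d * c * d⁻¹ = c ^ 2 := by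
  let c₀ : Equiv.Perm (Fin 7) := Equiv.addRight 1
  let d₀ : Equiv.Perm (Fin 7) := ⟨fun i => 2 * i, fun i => 4 * i, by decide, by decide⟩
  have h1 : c₀ ^ 7 = 1 := by decide
  have h2 : c₀ ≠ 1 := by decide
  have h3 : d₀ ^ 3 = 1 := by decide
  have h4 : d₀ * c₀ * d₀⁻¹ = c₀ ^ 2 := by decide
  have h5 : c₀ = (c₀ ^ 4) ^ 2 := by decide
  have h6 : d₀ = (d₀ ^ 2) ^ 2 := by decide
  let ι : Fin 7 ↪ Fin r := Fin.castLEEmb hr
  let hom : Equiv.Perm (Fin 7) →* Equiv.Perm (Fin r) := Equiv.Perm.viaEmbeddingHom ι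
  have hinj : Function.Injective hom := Equiv.Perm.viaEmbeddingHom_injective ι
  have halt : ∀ x : Equiv.Perm (Fin 7), hom (x ^ 2) ∈ alternatingGroup (Fin r) := by
    intro x
    rw [Equiv.Perm.mem_alternatingGroup, map_pow, map_pow, Int.units_sq]
  have hc : hom c₀ ∈ alternatingGroup (Fin r) := by
    rw [h5]
    exact halt _
  have hd : hom d₀ ∈ alternatingGroup (Fin r) := by
    rw [h6]
    exact halt _
  refine ⟨⟨hom c₀, hc⟩, ⟨hom d₀, hd⟩, Subtype.ext ?_, fun h => h2 (hinj ?_), Subtype.ext ?_, Subtype.ext ?_⟩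
  · show (hom c₀) ^ 7 = 1
    rw [← map_pow, h1, map_one]
  · rw [map_one]
    exact congrArg Subtype.val h
  · show (hom d₀) ^ 3 = 1
    rw [← map_pow, h3, map_one]
  · show hom d₀ * hom c₀ * (hom d₀)⁻¹ = (hom c₀) ^ 2
    rw [← map_inv, ← map_mul, ← map_mul, h4, map_pow]

end Cfsg.Agent.Lib.AltSec
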